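/-
Central extensions of the six-dimensional symplectic group over two elements: the bound two.
-/
import Cfsg.Agent.SpSixTwo.Data
import Cfsg.Agent.SpGeom.Order
import Cfsg.Agent.Schur.CoprimeLift
import Cfsg.Agent.Schur.Basic

set_option autoImplicit false
set_option maxRecDepth 100000

namespace CfsgLib.SpSixTwo

open Cfsg Matrix CfsgLib.Schur CfsgLib.SchurCert
open CfsgLib.M23Coh (wordE)

universe v

/-- The group. -/
abbrev G0 : Type := Matrix.symplecticGroup (Fin 3) (ZMod 2)

/-- Vectors. -/
abbrev V6 : Type := Fin 3 ⊕ Fin 3 → ZMod 2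

/-- Position of a coordinate. -/
def pos : Fin 3 ⊕ Fin 3 → ℕ
  | .inl i => i.val
  | .inr i => i.val + 3

/-- The vector of a code. -/
def vec (x : ℕ) : V6 := fun i => ((x / 2 ^ pos i % 2 : ℕ) : ZMod 2)

/-- The code of a vector. -/
def enc (v : V6) : ℕ :=
  (v (.inl 0)).val + 2 * (v (.inl 1)).val + 4 * (v (.inl 2)).val + 8 * (v (.inr 0)).val +
    16 * (v (.inr 1)).val + 32 * (v (.inr 2)).val

theorem enc_lt (v : V6) : enc v < 64 := by
  have h : ∀ a : ZMod 2, a.val < 2 := fun a => ZMod.val_lt a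
  have := h (v (.inl 0)); have := h (v (.inl 1)); have := h (v (.inl 2))
  have := h (v (.inr 0)); have := h (v (.inr 1)); have := h (v (.inr 2))
  simp only [enc]; omega

theorem vec_enc : ∀ v : V6, vec (enc v) = v := by decide +kernel

theorem vec_zero : vec 0 = 0 := by decide +kernel

theorem enc_vec : ∀ x < 64, enc (vec x) = x := by decide +kernel

/-- The matrix of a list of six columns. -/
def toM (g : List ℕ) : Matrix (Fin 3 ⊕ Fin 3) (Fin 3 ⊕ Fin 3) (ZMod 2) :=
  Matrix.of fun i j => vec (g.getD (pos j) 0) i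

/-- The action of a list of columns on a code. -/
def ap (g : List ℕ) (x : ℕ) : ℕ :=
  (List.range 6).foldl (fun a j => bif Nat.beq (x / 2 ^ j % 2) 1 then a ^^^ g.getD j 0 else a) 0

/-- A symplectic list of columns acting as computed. -/
def good (g : List ℕ) : Bool :=
  decide (toM g * Matrix.J (Fin 3) (ZMod 2) * (toM g)ᵀ = Matrix.J (Fin 3) (ZMod 2)) &&
    (List.range 64).all fun x => decide (toM g *ᵥ vec x = vec (ap g x)) && Nat.blt (ap g x) 64

/-- The element of a list of columns. -/
def el (g : List ℕ) : G0 :=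
  if h : toM g * Matrix.J (Fin 3) (ZMod 2) * (toM g)ᵀ = Matrix.J (Fin 3) (ZMod 2) then
    ⟨toM g, SymplecticGroup.mem_iff.2 h⟩
  else 1

/-- Elements of generator lists. -/
def gel (gs : List (List ℕ)) (i : ℕ) : G0 := el (gs.getD i [])

/-- The action of a word on a code. -/
def apw (gs : List (List ℕ)) : List ℕ → ℕ → ℕ
  | [], x => x
  | i :: r, x => ap (gs.getD i []) (apw gs r x)

/-- A key from the images of the basis. -/
def key (gs : List (List ℕ)) (w : List ℕ) : ℕ :=
  [1, 2, 4, 8, 16, 32].foldl (fun a x => a * 64 + apw gs w x) 0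

/-- Strictly increasing. -/
def incr : List ℕ → Bool
  | a :: b :: r => Nat.blt a b && incr (b :: r)
  | _ => true

theorem incr_nodup : ∀ l : List ℕ, incr l = true → l.Nodup
  | [], _ => List.nodup_nil
  | [a], _ => by simp
  | a :: b :: r, h => by
    have key : ∀ (a : ℕ) (l : List ℕ), incr (a :: l) = true → ∀ y ∈ l, a < y := by
      intro a l
      induction l generalizing a with
      | nil => simp
      | cons c t ih =>
        intro h y hy
        simp only [incr, Bool.and_eq_true, Nat.blt_eq] at h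
        rcases List.mem_cons.1 hy with rfl | hy
        · exact h.1
        · exact h.1.trans (ih c h.2 y hy)
    refine List.nodup_cons.2 ⟨fun hm => lt_irrefl a (key a _ h a hm), incr_nodup (b :: r) ?_⟩
    simp only [incr, Bool.and_eq_true] at h
    exact h.2

/-- The model checks of a certificate. -/
def modelOk (gs : List (List ℕ)) (c : GCert) : Bool :=
  gs.all good && (c.rels.all fun r => (r.1 ++ r.2).all (fun i => Nat.blt i gs.length) &&
      (List.range 64).all fun x => Nat.beq (apw gs r.1 x) (apw gs r.2 x)) &&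
    c.nf.all (fun w => w.all fun i => Nat.blt i gs.length) && incr (c.nf.map (key gs))

theorem apw_spec {gs : List (List ℕ)} (hg : gs.all good = true) :
    ∀ w : List ℕ, (∀ i ∈ w, i < gs.length) → ∀ x : ℕ, x < 64 →
      ((wordE (gel gs) w : G0) : Matrix (Fin 3 ⊕ Fin 3) (Fin 3 ⊕ Fin 3) (ZMod 2)) *ᵥ vec x = vec (apw gs w x) ∧
        apw gs w x < 64 := by
  intro w
  induction w with
  | nil =>
    intro _ x hx
    exact ⟨Matrix.one_mulVec _, hx⟩
  | cons i r ih =>
    intro hw x hx
    obtain ⟨h1, h2⟩ := ih (fun j hj => hw j (List.mem_cons_of_mem _ hj)) x hx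
    have hgi : good (gs.getD i []) = true := by
      rw [List.getD_eq_getElem _ _ (hw i List.mem_cons_self)]
      exact List.all_eq_true.1 hg _ (List.getElem_mem _)
    obtain ⟨hm, ha⟩ := Bool.and_eq_true_iff.1 hgi
    have hmat := of_decide_eq_true hm
    obtain ⟨ha1, ha2⟩ := Bool.and_eq_true_iff.1 (List.all_eq_true.1 ha _ (List.mem_range.2 h2))
    have hmul : wordE (gel gs) (i :: r) = gel gs i * wordE (gel gs) r := rfl
    have hap : apw gs (i :: r) x = ap (gs.getD i []) (apw gs r x) := rfl
    refine ⟨?_, hap ▸ Nat.blt_eq.mp ha2⟩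
    rw [hmul, Submonoid.coe_mul, ← Matrix.mulVec_mulVec, h1, hap]
    simp only [gel, el, dif_pos hmat]
    exact of_decide_eq_true ha1

theorem card_G0 : Nat.card G0 = 1451520 := by
  rw [CfsgLib.SpGeom.card_Sp]
  simp [Finset.prod_range_succ, ZMod.card]

theorem ok_of {gs : List (List ℕ)} {c : GCert} (hp : c.p.Prime) (hm : modelOk gs c = true)
    (h : (c.checkEqs && c.checkSol && c.checkShape && c.checkNF) = true)
    (hs : ¬ c.p ∣ 1451520 / c.p ^ c.n) : c.Ok (gel gs) := by
  simp only [modelOk, Bool.and_eq_true, List.all_eq_true (l := c.rels), List.all_eq_true (l := c.nf),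
    List.all_eq_true (l := List.range 64), List.mem_range, Nat.beq_eq] at hm
  simp only [Bool.and_eq_true] at h
  obtain ⟨⟨⟨hg, hr⟩, hn⟩, hk⟩ := hm
  refine ⟨hp, fun r hr' => ?_, h.1.1.1, h.1.1.2, h.1.2, h.2, ?_, by rwa [card_G0]⟩
  · obtain ⟨hlt, heq⟩ := hr r hr'
    simp only [List.all_eq_true, List.mem_append, Nat.blt_eq] at hlt
    refine CfsgLib.SpGeom.ext_mulVec fun v => ?_
    rw [← vec_enc v, (apw_spec hg r.1 (fun i hi => hlt i (Or.inl hi)) _ (enc_lt v)).1,
      (apw_spec hg r.2 (fun i hi => hlt i (Or.inr hi)) _ (enc_lt v)).1, heq _ (enc_lt v)]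
  · have hnd := incr_nodup _ hk
    refine (List.nodup_map_iff_inj_on (List.Nodup.of_map _ hnd)).2 fun u hu w hw huw => ?_
    refine List.inj_on_of_nodup_map hnd hu hw ?_
    simp only [List.all_eq_true, Nat.blt_eq] at hn
    have hx : ∀ x < 64, apw gs u x = apw gs w x := fun x hx => by
      have e1 := apw_spec hg u (hn u hu) x hx
      have e2 := apw_spec hg w (hn w hw) x hx
      have e : vec (apw gs u x) = vec (apw gs w x) := by rw [← e1.1, ← e2.1, huw]
      rw [← enc_vec _ e1.2, ← enc_vec _ e2.2, e]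
    simp only [key, List.foldl_cons, List.foldl_nil, hx 1 (by norm_num), hx 2 (by norm_num),
      hx 4 (by norm_num), hx 8 (by norm_num), hx 16 (by norm_num), hx 32 (by norm_num)]

theorem model2 : modelOk p2Gens cert2 = true := by decide +kernel
theorem model3 : modelOk p3Gens cert3 = true := by decide +kernel

theorem checks2 : (cert2.checkEqs && cert2.checkSol && cert2.checkShape && cert2.checkNF &&
    cert2.checkFour p2Four) = true := by decide +kernel

theorem checks3 : (cert3.checkEqs && cert3.checkSol && cert3.checkShape && cert3.checkNF &&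
    cert3.phiZero) = true := by decide +kernel

theorem ok2 : cert2.Ok (gel p2Gens) :=
  ok_of Nat.prime_two model2 (Bool.and_eq_true_iff.1 checks2).1 (by decide +kernel)

theorem ok3 : cert3.Ok (gel p3Gens) :=
  ok_of Nat.prime_three model3 (Bool.and_eq_true_iff.1 checks3).1 (by decide +kernel)

theorem odd_not_dvd {Γ : Type v} [Group Γ] [Finite Γ] {σ : Γ →* G0} (hσ : Cfsg.IsStemExtension σ)
    (q : ℕ) (hq : q.Prime) (hd : q ∣ Nat.card σ.ker) : q = 2 := by
  by_contra h2
  refine not_dvd_card_ker hσ hq (fun Δ _ _ τ e hcov hst => ?_) hd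
  haveI := Fact.mk hq
  by_cases h3 : q = 3
  · subst h3; exact ok3.no_cover (Bool.and_eq_true_iff.1 checks3).2 hcov hst
  refine no_cover_of_cyclic (p := q) ?_ hcov hst
  rw [card_G0]
  intro hdvd
  have h1 : q ∣ 2 ^ 9 * 3 ^ 4 * 5 * 7 := by norm_num; exact (dvd_pow_self q two_ne_zero).trans hdvd
  rcases (Nat.Prime.dvd_mul hq).1 h1 with h | h
  · rcases (Nat.Prime.dvd_mul hq).1 h with h | h
    · rcases (Nat.Prime.dvd_mul hq).1 h with h | h
      · exact h2 ((Nat.prime_dvd_prime_iff_eq hq Nat.prime_two).1 (hq.dvd_of_dvd_pow h))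
      · exact h3 ((Nat.prime_dvd_prime_iff_eq hq Nat.prime_three).1 (hq.dvd_of_dvd_pow h))
    · obtain rfl := (Nat.prime_dvd_prime_iff_eq hq (by norm_num : Nat.Prime 5)).1 h
      norm_num at hdvd
  · obtain rfl := (Nat.prime_dvd_prime_iff_eq hq (by norm_num : Nat.Prime 7)).1 h
    norm_num at hdvd

/-- The kernel of a stem extension is an image of the group of order two. -/
theorem stem_bound {Γ : Type v} [Group Γ] [Finite Γ] (σ : Γ →* G0) (hσ : Cfsg.IsStemExtension σ) :
    ∃ π : Multiplicative (ZMod 2) →* σ.ker, Function.Surjective π := by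
  obtain ⟨z, -, hz, hgen⟩ :=
    ok2.card_ker_dvd_two rfl (Bool.and_eq_true_iff.1 checks2).2 hσ (odd_not_dvd hσ)
  exact exists_surj_zmod hz σ.ker hgen

end CfsgLib.SpSixTwo
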