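/-
The double cover of the six-dimensional symplectic group over two elements, inside invertible
eight by eight matrices over three elements times the group: the seven gamma matrices span a space
whose root lines are permuted up to sign.
-/
import Cfsg.Agent.SpSixTwo.Upper

set_option autoImplicit false
set_option maxRecDepth 100000

namespace CfsgLib.SpSixTwo

open Cfsg Matrix
open scoped commutatorElement

/-- Eight by eight matrices. -/
abbrev M8 : Type := Matrix (Fin 8) (Fin 8) (ZMod 3)

/-- Six by six matrices. -/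
abbrev M6 : Type := Matrix (Fin 3 ⊕ Fin 3) (Fin 3 ⊕ Fin 3) (ZMod 2)

/-- The matrix of a code. -/
def gam (x : ℕ) : M8 :=
  Matrix.of fun i j => ((((gammaTab.getD x []).getD i.val 0) / 3 ^ j.val % 3 : ℕ) : ZMod 3)

/-- The matrix of a vector. -/
def gv (v : V6) : M8 := gam (enc v)

/-- Conjugation permutes the root matrices up to sign, along the group element. -/
def Rel (h : M8ˣ) (A : G0) : Prop :=
  ∀ v : V6, (h : M8) * gv v = gv ((A : M6) *ᵥ v) * h ∨
    (h : M8) * gv v = -(gv ((A : M6) *ᵥ v) * h)

theorem Rel.one : Rel 1 1 := fun v => Or.inl (by simp)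

theorem Rel.mul {h k : M8ˣ} {A B : G0} (ha : Rel h A) (hb : Rel k B) : Rel (h * k) (A * B) := by
  intro v
  rw [Units.val_mul, Submonoid.coe_mul, ← Matrix.mulVec_mulVec, mul_assoc]
  rcases hb v with e | e <;> rw [e]
  · rcases ha ((B : M6) *ᵥ v) with e' | e'
    · exact Or.inl (by rw [← mul_assoc, e', mul_assoc])
    · exact Or.inr (by rw [← mul_assoc, e', neg_mul, mul_assoc])
  · rcases ha ((B : M6) *ᵥ v) with e' | e'
    · exact Or.inr (by rw [mul_neg, ← mul_assoc, e', mul_assoc])
    · exact Or.inl (by rw [mul_neg, ← mul_assoc, e', neg_mul, neg_neg, mul_assoc])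

theorem Rel.inv {h : M8ˣ} {A : G0} (ha : Rel h A) : Rel h⁻¹ A⁻¹ := by
  intro v
  set w := ((A⁻¹ : G0) : M6) *ᵥ v
  have hw : (A : M6) *ᵥ w = v := CfsgLib.SpGeom.mulVec_inv A v
  rcases ha w with e | e <;> rw [hw] at e
  · refine Or.inl ?_
    rw [Units.eq_mul_inv_iff_mul_eq, mul_assoc, Units.inv_mul_eq_iff_eq_mul, e]
  · refine Or.inr ?_
    rw [← neg_mul, Units.eq_mul_inv_iff_mul_eq, mul_assoc, Units.inv_mul_eq_iff_eq_mul, mul_neg, e, neg_neg]

/-- The cover. -/
def cover : Subgroup (M8ˣ × G0) where
  carrier := {p | Rel p.1 p.2}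
  one_mem' := Rel.one
  mul_mem' := Rel.mul
  inv_mem' := Rel.inv

/-- The projection. -/
def proj : cover →* G0 := (MonoidHom.snd M8ˣ G0).comp cover.subtype

/-- The transvection of a code. -/
def tvc (x : ℕ) : G0 := CfsgLib.SpGeom.tv (vec x) 1

/-- An entry of packed rows. -/
def rent (R : List ℕ) (i j : ℕ) : ℕ := R.getD i 0 / 3 ^ j % 3

/-- An entry of a product of packed rows. -/
def rmul (A B : List ℕ) (i j : ℕ) : ℕ :=
  (rent A i 0 * rent B 0 j + rent A i 1 * rent B 1 j + rent A i 2 * rent B 2 j + rent A i 3 * rent B 3 j +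
    rent A i 4 * rent B 4 j + rent A i 5 * rent B 5 j + rent A i 6 * rent B 6 j + rent A i 7 * rent B 7 j) % 3

theorem rmul_spec (x y : ℕ) (i j : Fin 8) :
    (gam x * gam y) i j = ((rmul (gammaTab.getD x []) (gammaTab.getD y []) i.val j.val : ℕ) : ZMod 3) := by
  rw [rmul, ZMod.natCast_mod, Matrix.mul_apply, Fin.sum_univ_eight]
  simp only [Nat.cast_add, Nat.cast_mul]
  rfl

/-- The code of the image under the transvection. -/
def tcode (x y : ℕ) : ℕ := enc (vec y + (Cfsg.sympForm 3 (ZMod 2) (vec y) (vec x)) • vec x)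

/-- All entries agree. -/
def cells (P : ℕ → ℕ → Bool) : Bool := (List.range 8).all fun i => (List.range 8).all fun j => P i j

theorem cells_spec {P : ℕ → ℕ → Bool} (h : cells P = true) (i j : Fin 8) : P i.val j.val = true :=
  List.all_eq_true.1 (List.all_eq_true.1 h i.val (List.mem_range.2 i.isLt)) j.val (List.mem_range.2 j.isLt)

/-- Equality up to sign of the two products. -/
def pairOk (A B C : List ℕ) : Bool :=
  (cells fun i j => Nat.beq (rmul A B i j) (rmul C A i j)) ||
    cells fun i j => Nat.beq ((rmul A B i j + rmul C A i j) % 3) 0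

/-- The root matrix of a code squares to minus one. -/
def sqOk (x : ℕ) : Bool :=
  cells fun i j => Nat.beq (rmul (gammaTab.getD x []) (gammaTab.getD x []) i j) (bif Nat.beq i j then 2 else 0)

/-- The root matrix of a code lifts the transvection. -/
def liftOk (x : ℕ) : Bool :=
  sqOk x && (List.range 64).all fun y =>
    pairOk (gammaTab.getD x []) (gammaTab.getD y []) (gammaTab.getD (tcode x y) [])

theorem gam_sq {x : ℕ} (h : sqOk x = true) : gam x * gam x = -1 := by
  ext i j
  rw [rmul_spec, Nat.eq_of_beq_eq_true (cells_spec h i j), Matrix.neg_apply, Matrix.one_apply]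
  by_cases hij : i = j
  · subst hij
    rw [show Nat.beq i.val i.val = true from Nat.beq_refl _, if_pos rfl]
    rfl
  · rw [show Nat.beq i.val j.val = false from Bool.eq_false_iff.2 fun e => hij (Fin.ext (Nat.eq_of_beq_eq_true e)),
      if_neg hij]
    rfl

theorem gam_pair {x y w : ℕ} (h : pairOk (gammaTab.getD x []) (gammaTab.getD y []) (gammaTab.getD w []) = true) :
    gam x * gam y = gam w * gam x ∨ gam x * gam y = -(gam w * gam x) := by
  rcases Bool.or_eq_true_iff.1 h with h | h
  · refine Or.inl (Matrix.ext fun i j => ?_)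
    rw [rmul_spec, rmul_spec, Nat.eq_of_beq_eq_true (cells_spec h i j)]
  · refine Or.inr (Matrix.ext fun i j => ?_)
    rw [Matrix.neg_apply, rmul_spec, rmul_spec, eq_neg_iff_add_eq_zero, ← Nat.cast_add, ← ZMod.natCast_mod,
      Nat.eq_of_beq_eq_true (cells_spec h i j), Nat.cast_zero]

theorem exists_lift {x : ℕ} (h : liftOk x = true) : ∃ u : M8ˣ, (u : M8) = gam x ∧ (u, tvc x) ∈ cover := by
  obtain ⟨h1, h2⟩ := Bool.and_eq_true_iff.1 h
  have hsq := gam_sq h1
  refine ⟨⟨gam x, -gam x, by rw [mul_neg, hsq, neg_neg], by rw [neg_mul, hsq, neg_neg]⟩, rfl, fun v => ?_⟩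
  have hv := gam_pair (List.all_eq_true.1 h2 (enc v) (List.mem_range.2 (enc_lt v)))
  rw [tcode, vec_enc] at hv
  simp only [tvc, CfsgLib.SpGeom.tv_mulVec, one_mul]
  exact hv

theorem lifts_ok : ((liftTab ++ axisTab.take 3).all liftOk) = true := by decide +kernel

theorem tvc_mem_range {x : ℕ} (hx : x ∈ liftTab ++ axisTab.take 3) : tvc x ∈ proj.range := by
  obtain ⟨u, -, hu⟩ := exists_lift (List.all_eq_true.1 lifts_ok x hx)
  exact ⟨⟨_, hu⟩, rfl⟩

/-- Grow a set of codes by conjugation. -/
def grow : List (ℕ × ℕ × ℕ) → List ℕ → Bool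
  | [], known => (List.range 64).all fun y => Nat.beq y 0 || known.elem y
  | (y, u, p) :: r, known => known.elem u && known.elem p &&
      decide ((tvc u : M6) *ᵥ vec p = vec y) && grow r (y :: known)

theorem grow_ok : grow spreadTab liftTab = true := by decide +kernel

theorem grow_spec : ∀ (l : List (ℕ × ℕ × ℕ)) (known : List ℕ), grow l known = true →
    (∀ x ∈ known, tvc x ∈ proj.range) → ∀ y : ℕ, y < 64 → y ≠ 0 → tvc y ∈ proj.range := by
  intro l
  induction l with
  | nil =>
    intro known h hk y hy h0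
    simp only [grow, List.all_eq_true, List.mem_range, Bool.or_eq_true, Nat.beq_eq, List.elem_iff] at h
    exact hk y ((h y hy).resolve_left h0)
  | cons a r ih =>
    obtain ⟨y, u, p⟩ := a
    intro known h hk
    simp only [grow, Bool.and_eq_true, List.elem_iff, decide_eq_true_eq] at h
    obtain ⟨⟨⟨hu, hp⟩, he⟩, hr⟩ := h
    refine ih _ hr fun x hx => ?_
    rcases List.mem_cons.1 hx with rfl | hx
    · rw [tvc, ← he, ← CfsgLib.SpGeom.tv_conj]
      exact mul_mem (mul_mem (hk u hu) (hk p hp)) (inv_mem (hk u hu))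
    · exact hk x hx

theorem proj_surjective : Function.Surjective proj := by
  rw [← MonoidHom.range_eq_top]
  refine CfsgLib.SpGeom.eq_top_of_tv _ fun w c => ?_
  have hc : c = 0 ∨ c = 1 := by revert c; decide
  rcases hc with rfl | rfl
  · rw [CfsgLib.SpGeom.tv_zero]; exact one_mem _
  by_cases hw : enc w = 0
  · have : CfsgLib.SpGeom.tv w (1 : ZMod 2) = 1 := by
      refine CfsgLib.SpGeom.ext_mulVec fun x => ?_
      rw [← vec_enc w, hw, vec_zero, CfsgLib.SpGeom.tv_mulVec, smul_zero, add_zero]
      exact (Matrix.one_mulVec x).symm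
    rw [this]; exact one_mem _
  have := grow_spec _ _ grow_ok (fun x hx => tvc_mem_range (List.mem_append_left _ hx)) _ (enc_lt w) hw
  rwa [tvc, vec_enc] at this

/-! ### The kernel -/

/-- The seven gamma matrices. -/
def ga (a : Fin 7) : M8 := gam (axisTab.getD a.val 0)

/-- Membership in a quadruple. -/
def inQuad (l a : Fin 7) : ZMod 3 := bif (quadTab.getD l.val []).elem a.val then 1 else 0

theorem quad_eq : ∀ l : Fin 7, gam (quadCode.getD l.val 0) = -∑ a, inQuad l a • ga a := by decide +kernel

theorem ga_entry : ∀ a b : Fin 7, ga b a.succ 0 ≠ 0 ↔ a = b := by decide +kernel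

theorem quad_meet : ∀ a : Fin 7, ∃ l, inQuad l a = 1 ∧ inQuad l 0 = 1 := by decide +kernel

theorem codes_lt : (∀ a : Fin 7, axisTab.getD a.val 0 < 64) ∧ ∀ l : Fin 7, quadCode.getD l.val 0 < 64 := by
  decide +kernel

theorem indep {c : Fin 7 → ZMod 3} (h : ∑ a, c a • ga a = 0) (a : Fin 7) : c a = 0 := by
  have e := congrFun (congrFun h a.succ) 0
  rw [Matrix.sum_apply, Finset.sum_eq_single a (fun b _ hb => ?_) (by simp)] at e
  · simp only [Matrix.smul_apply, smul_eq_mul, Matrix.zero_apply, mul_eq_zero] at e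
    exact e.resolve_right ((ga_entry a a).2 rfl)
  · rw [Matrix.smul_apply, not_ne_iff.1 (fun hh => hb ((ga_entry a b).1 hh).symm), smul_zero]

theorem gam_sign {h : M8ˣ} (hh : Rel h 1) {x : ℕ} (hx : x < 64) :
    ∃ s : ZMod 3, (s = 1 ∨ s = -1) ∧ (h : M8) * gam x = s • (gam x * h) := by
  have := hh (vec x)
  rw [OneMemClass.coe_one, Matrix.one_mulVec, gv, enc_vec x hx] at this
  rcases this with e | e
  · exact ⟨1, Or.inl rfl, by rw [e, one_smul]⟩
  · exact ⟨-1, Or.inr rfl, by rw [e, neg_one_smul]⟩

/-- Products of gamma matrices along a list. -/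
def gaProd (l : List (Fin 7)) : M8 := (l.map ga).prod

/-- The separating diagonal products. -/
def sepIdx (k : Fin 7) : List (Fin 7) := (sepTab.getD k.val []).map (Fin.ofNat 7)

theorem sep_len : ∀ k : Fin 7, (sepIdx k).length = 3 := by decide +kernel

theorem sep_diag_aux : ((List.finRange 7).all fun k => (List.finRange 8).all fun i => (List.finRange 8).all fun j =>
    decide (i = j ∨ gaProd (sepIdx k) i j = 0)) = true := by decide +kernel

theorem sep_diag (k : Fin 7) (i j : Fin 8) (h : i ≠ j) : gaProd (sepIdx k) i j = 0 :=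
  (of_decide_eq_true (List.all_eq_true.1 (List.all_eq_true.1 (List.all_eq_true.1 sep_diag_aux k
    (List.mem_finRange k)) i (List.mem_finRange i)) j (List.mem_finRange j))).resolve_left h

theorem sep_ne : ∀ i j : Fin 8, i ≠ j → ∃ k : Fin 7, gaProd (sepIdx k) i i ≠ gaProd (sepIdx k) j j := by
  decide +kernel

theorem sep_anti : ∀ i j : Fin 8, ∃ k : Fin 7, gaProd (sepIdx k) i i ≠ -gaProd (sepIdx k) j j := by
  decide +kernel

theorem semiconj_prod {h : M8} {s : ZMod 3} (hs : ∀ a, h * ga a = s • (ga a * h)) :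
    ∀ l : List (Fin 7), h * gaProd l = s ^ l.length • (gaProd l * h) := by
  intro l
  induction l with
  | nil => simp [gaProd]
  | cons a r ih =>
    rw [show gaProd (a :: r) = ga a * gaProd r from rfl, ← mul_assoc, hs, smul_mul_assoc, mul_assoc (ga a),
      ih, mul_smul_comm, smul_smul, List.length_cons, pow_succ', mul_assoc]

theorem ker_scalar {h : M8ˣ} (hh : Rel h 1) : (h : M8) = 1 ∨ (h : M8) = -1 := by
  choose s hs1 hs using fun a : Fin 7 => gam_sign hh (codes_lt.1 a)
  have hne : ∀ X : M8, X * (h : M8) = 0 → X = 0 := fun X hX => by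
    simpa using congrArg (· * (↑h⁻¹ : M8)) hX
  have hall : ∀ a, s a = s 0 := by
    intro a
    obtain ⟨l, hla, hl0⟩ := quad_meet a
    obtain ⟨t, -, ht⟩ := gam_sign hh (codes_lt.2 l)
    have key : ∑ b, (inQuad l b * (s b - t)) • ga b = 0 := by
      refine hne _ ?_
      have e1 : ∀ b, (inQuad l b * (s b - t)) • ga b * (h : M8) =
          (h : M8) * (inQuad l b • ga b) - t • ((inQuad l b • ga b) * (h : M8)) := fun b => by
        rw [Matrix.mul_smul, show (h : M8) * ga b = s b • (ga b * h) from hs b, Matrix.smul_mul, Matrix.smul_mul,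
          smul_smul, smul_smul, ← sub_smul]
        congr 1
        ring
      rw [Finset.sum_mul, Finset.sum_congr rfl (fun b _ => e1 b), Finset.sum_sub_distrib, ← Finset.mul_sum,
        ← Finset.smul_sum, ← Finset.sum_mul]
      rw [quad_eq, mul_neg, neg_mul, smul_neg, neg_inj] at ht
      rw [ht, sub_self]
    have ha := indep key a
    have h0 := indep key 0
    rw [hla, one_mul, sub_eq_zero] at ha
    rw [hl0, one_mul, sub_eq_zero] at h0
    rw [ha, h0]
  have hs' : ∀ a, (h : M8) * ga a = s 0 • (ga a * h) := fun a => by rw [← hall a]; exact hs a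
  have hentry : ∀ (k : Fin 7) (i j : Fin 8), (h : M8) i j * gaProd (sepIdx k) j j =
      s 0 ^ 3 * (gaProd (sepIdx k) i i * (h : M8) i j) := by
    intro k i j
    have e := congrFun (congrFun (semiconj_prod hs' (sepIdx k)) i) j
    rw [sep_len, Matrix.smul_apply, smul_eq_mul, Matrix.mul_apply, Matrix.mul_apply,
      Finset.sum_eq_single j (fun b _ hb => by rw [sep_diag k b j hb, mul_zero]) (by simp),
      Finset.sum_eq_single i (fun b _ hb => by rw [sep_diag k i b (Ne.symm hb), zero_mul]) (by simp)] at e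
    exact e
  have hpos : s 0 = 1 := by
    refine (hs1 0).resolve_right fun e => ?_
    have h4 : (h : M8) = 0 := by
      ext i j
      obtain ⟨k, hk⟩ := sep_anti i j
      have e2 : (h : M8) i j * (gaProd (sepIdx k) i i + gaProd (sepIdx k) j j) = 0 := by
        have e3 := hentry k i j
        rw [e] at e3
        linear_combination e3
      exact (mul_eq_zero.1 e2).resolve_right fun e4 => hk (eq_neg_of_add_eq_zero_left e4)
    exact one_ne_zero (show (1 : M8) = 0 by rw [← h.mul_inv, h4, zero_mul])
  have hcomm : ∀ l, (h : M8) * gaProd l = gaProd l * h := fun l => by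
    rw [semiconj_prod hs' l, hpos, one_pow, one_smul]
  have hdiag : ∀ i j : Fin 8, i ≠ j → (h : M8) i j = 0 := by
    intro i j hij
    obtain ⟨k, hk⟩ := sep_ne i j hij
    have e := hentry k i j
    rw [hpos, one_pow, one_mul] at e
    have e2 : (h : M8) i j * (gaProd (sepIdx k) i i - gaProd (sepIdx k) j j) = 0 := by
      linear_combination -e
    exact (mul_eq_zero.1 e2).resolve_right (sub_ne_zero.2 hk)
  have hscal : ∀ i : Fin 8, (h : M8) i i = (h : M8) 0 0 := by
    intro i
    induction i using Fin.cases with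
    | zero => rfl
    | succ a =>
      have e := congrFun (congrFun (hs' a) a.succ) 0
      rw [hpos, one_smul, Matrix.mul_apply, Matrix.mul_apply,
        Finset.sum_eq_single a.succ (fun b _ hb => by rw [hdiag a.succ b (Ne.symm hb), zero_mul]) (by simp),
        Finset.sum_eq_single (0 : Fin 8) (fun b _ hb => by rw [hdiag b 0 hb, mul_zero]) (by simp),
        mul_comm (ga a a.succ 0)] at e
      exact mul_right_cancel₀ ((ga_entry a a).2 rfl) e
  have hform : (h : M8) = (h : M8) 0 0 • (1 : M8) := by
    ext i j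
    rw [Matrix.smul_apply, Matrix.one_apply]
    by_cases hij : i = j
    · subst hij; simp [hscal i]
    · simp [hij, hdiag i j hij]
  have hcases : ∀ c : ZMod 3, c = 0 ∨ c = 1 ∨ c = -1 := by decide
  rcases hcases ((h : M8) 0 0) with e | e | e <;> rw [e] at hform
  · rw [zero_smul] at hform
    exact absurd (show (1 : M8) = 0 by rw [← h.mul_inv, hform, zero_mul]) one_ne_zero
  · exact Or.inl (by rw [hform, one_smul])
  · exact Or.inr (by rw [hform, neg_one_smul])

/-- The central involution. -/
def negOne : cover := ⟨(-1, 1), fun v => Or.inl (by simp)⟩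

theorem negOne_ne : negOne ≠ 1 := fun e => by
  have := congrArg (fun p : cover => ((p.val.1 : M8ˣ) : M8) 0 0) e
  revert this
  simp only [negOne, Units.val_neg, Units.val_one, Matrix.neg_apply, Matrix.one_apply_eq]
  decide

theorem orderOf_negOne : orderOf negOne = 2 := by
  haveI := Fact.mk Nat.prime_two
  refine orderOf_eq_prime ?_ negOne_ne
  refine Subtype.ext (Prod.ext ?_ (one_pow 2))
  show (-1 : M8ˣ) ^ 2 = 1
  rw [sq, neg_mul, mul_neg, neg_neg, mul_one]

theorem ker_eq : proj.ker = Subgroup.zpowers negOne := by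
  refine le_antisymm (fun p hp => ?_) (Subgroup.zpowers_le.2 rfl)
  obtain ⟨⟨h, A⟩, hr⟩ := p
  obtain rfl : A = 1 := hp
  rcases ker_scalar hr with e | e
  · obtain rfl : h = 1 := Units.ext e
    exact one_mem _
  · obtain rfl : h = -1 := Units.ext e
    exact Subgroup.mem_zpowers _

theorem ker_central : proj.ker ≤ Subgroup.center cover := by
  rw [ker_eq, Subgroup.zpowers_le, Subgroup.mem_center_iff]
  intro p
  refine Subtype.ext (Prod.ext ?_ ((mul_one _).trans (one_mul _).symm))
  show p.1.1 * -1 = -1 * p.1.1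
  rw [mul_neg, mul_one, neg_mul, one_mul]

theorem anti_check :
    (gam (axisTab.getD 0 0) * gam (axisTab.getD 1 0)) * (gam (axisTab.getD 0 0) * gam (axisTab.getD 2 0)) =
      -((gam (axisTab.getD 0 0) * gam (axisTab.getD 2 0)) * (gam (axisTab.getD 0 0) * gam (axisTab.getD 1 0))) ∧
    (((tvc (axisTab.getD 0 0) * tvc (axisTab.getD 1 0)) * (tvc (axisTab.getD 0 0) * tvc (axisTab.getD 2 0)) : G0) :
        M6) =
      ((tvc (axisTab.getD 0 0) * tvc (axisTab.getD 2 0)) * (tvc (axisTab.getD 0 0) * tvc (axisTab.getD 1 0)) : G0) := by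
  decide +kernel

theorem ker_le_commutator : proj.ker ≤ commutator cover := by
  have hm : ∀ i < 3, axisTab.getD i 0 ∈ liftTab ++ axisTab.take 3 := by decide +kernel
  choose u hu1 hu2 using fun i : Fin 3 => exists_lift (List.all_eq_true.1 lifts_ok _ (hm i.val i.isLt))
  let L : Fin 3 → cover := fun i => ⟨_, hu2 i⟩
  set a := L 0 * L 1 with ha
  set b := L 0 * L 2 with hb
  have e : a * b = negOne * (b * a) := by
    refine Subtype.ext (Prod.ext (Units.ext ?_) ?_)
    · simp only [ha, hb, L, negOne, Subgroup.coe_mul, Prod.fst_mul, Units.val_mul, Units.val_neg, Units.val_one,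
        hu1, neg_mul, one_mul]
      exact anti_check.1
    · simp only [ha, hb, L, negOne, Subgroup.coe_mul, Prod.snd_mul, one_mul]
      exact Subtype.ext anti_check.2
  rw [ker_eq, Subgroup.zpowers_le, show negOne = ⁅a, b⁆ by
    rw [commutatorElement_def, e]; group]
  exact Subgroup.commutator_mem_commutator (Subgroup.mem_top _) (Subgroup.mem_top _)

theorem card_ker : Nat.card proj.ker = 2 := by
  rw [ker_eq, Nat.card_zpowers, orderOf_negOne]

end CfsgLib.SpSixTwo
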