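/-
The multiplier of the six-dimensional projective symplectic group over two elements is two.
-/
import Cfsg.Agent.SpSixTwo.Cover
import Cfsg.Agent.AutPSp.Unique

set_option autoImplicit false

namespace CfsgLib.SpSixTwo

open Cfsg Matrix

universe u w

/-- Entrywise ring isomorphism on symplectic groups. -/
def spCongr {R : Type u} {S : Type w} [CommRing R] [CommRing S] (φ : R ≃+* S) :
    Matrix.symplecticGroup (Fin 3) R ≃* Matrix.symplecticGroup (Fin 3) S where
  toFun A := ⟨φ.mapMatrix (A : Matrix _ _ R), by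
    rw [SymplecticGroup.mem_iff]
    have h := congrArg φ.mapMatrix (SymplecticGroup.mem_iff.1 A.2)
    simp only [map_mul] at h
    have hJ : φ.mapMatrix (Matrix.J (Fin 3) R) = Matrix.J (Fin 3) S := by
      ext (i | i) (j | j) <;> by_cases hij : i = j <;> simp [hij, Matrix.J, Matrix.one_apply, RingEquiv.mapMatrix_apply]
    rw [hJ] at h
    exact h⟩
  invFun A := ⟨φ.symm.mapMatrix (A : Matrix _ _ S), by
    rw [SymplecticGroup.mem_iff]
    have h := congrArg φ.symm.mapMatrix (SymplecticGroup.mem_iff.1 A.2)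
    simp only [map_mul] at h
    have hJ : φ.symm.mapMatrix (Matrix.J (Fin 3) S) = Matrix.J (Fin 3) R := by
      ext (i | i) (j | j) <;> by_cases hij : i = j <;> simp [hij, Matrix.J, Matrix.one_apply, RingEquiv.mapMatrix_apply]
    rw [hJ] at h
    exact h⟩
  left_inv A := Subtype.ext (Matrix.ext fun i j => φ.symm_apply_apply _)
  right_inv A := Subtype.ext (Matrix.ext fun i j => φ.apply_symm_apply _)
  map_mul' A B := Subtype.ext (map_mul φ.mapMatrix _ _)

variable {F : Type u} [Field F] [Fintype F]

theorem exists_equiv (hF : Fintype.card F = 2) : Nonempty (Cfsg.PSp 3 F ≃* G0) := by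
  classical
  let φ : ZMod 2 ≃+* F := ZMod.ringEquivOfPrime F Nat.prime_two hF
  have h2 : (2 : F) = 0 := by
    rw [← map_ofNat φ 2, show (2 : ZMod 2) = 0 by decide]
    exact map_zero φ
  have hc : Subgroup.center (Matrix.symplecticGroup (Fin 3) F) = ⊥ := by
    refine Subgroup.eq_bot_of_card_eq _ ?_
    rw [CfsgLib.AutPSp.card_center_Sp (by norm_num), if_pos h2]
  exact ⟨((QuotientGroup.quotientMulEquivOfEq hc).trans QuotientGroup.quotientBot).trans (spCongr φ.symm)⟩

theorem finite_cover : Finite cover := inferInstance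

theorem cover_stem : Cfsg.IsStemExtension proj := ⟨proj_surjective, ker_central, ker_le_commutator⟩

theorem multiplier (hF : Fintype.card F = 2) : Cfsg.HasCyclicSchurMultiplier (Cfsg.PSp 3 F) 2 := by
  obtain ⟨e⟩ := exists_equiv hF
  constructor
  · let π : cover →* Cfsg.PSp 3 F := e.symm.toMonoidHom.comp proj
    have hker : π.ker = proj.ker := by
      ext x
      simp [π, MonoidHom.mem_ker]
    have hπ : Cfsg.IsStemExtension π :=
      ⟨e.symm.surjective.comp proj_surjective, hker ▸ ker_central, hker ▸ ker_le_commutator⟩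
    refine CfsgLib.Schur.exists_stem_model hπ
      ((MulEquiv.subgroupCongr hker).trans (mulEquivOfPrimeCardEq (p := 2) card_ker (by simp)))
  · intro Γ _ _ σ hσ
    obtain ⟨hs, hc, hst⟩ := hσ
    let τ : Γ →* G0 := e.toMonoidHom.comp σ
    have hker : τ.ker = σ.ker := by
      ext y
      simp [τ, MonoidHom.mem_ker]
    obtain ⟨π, hπ⟩ := stem_bound τ ⟨e.surjective.comp hs, hker ▸ hc, hker ▸ hst⟩
    exact ⟨(MulEquiv.subgroupCongr hker).toMonoidHom.comp π,
      (MulEquiv.surjective (MulEquiv.subgroupCongr hker)).comp hπ⟩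

end CfsgLib.SpSixTwo
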